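import Cfsg.Agent.Known.Aut.BalOGraph
import Cfsg.Agent.Known.Aut.GrForm
import Cfsg.Agent.Cls.Wall2
import Cfsg.Agent.Cls.SpO
import Cfsg.Agent.Cls.SS

/-!
Splitting of the classes of graph involutions and of semisimple elements of odd order of
even-dimensional orthogonal groups.
-/

set_option autoImplicit false

namespace CF.Known

open Matrix SemidirectProduct CF.Geom Module Subgroup QuadraticMap Polynomial DihedralGroup
open scoped MatrixGroups

variable {F : Type*} [Field F] {ι : Type} [Fintype ι] [DecidableEq ι]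
  {Q : QuadraticForm F (ι → F)} {m : ℕ}

theorem det_of_nonsq (hm : Fintype.card ι = 2 * m) {g : Matrix ι ι F} {l : F}
    (hg : g * g = l • 1) (hl : ¬ IsSquare l) : g.det = (-l) ^ m := by
  have h6 : g.charpoly * (-g).charpoly = (X ^ 2 - C l) ^ (2 * m) := by
    rw [← hm, charpoly, charpoly, ← det_mul, charmatrix, charmatrix, map_neg, sub_neg_eq_add,
      ← (scalar_commute X (Commute.all _) _).mul_self_sub_mul_self_eq', ← map_mul, ← map_mul, hg,
      smul_one_eq_diagonal, RingHom.mapMatrix_apply, diagonal_map (map_zero _), scalar_apply,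
      diagonal_sub, det_diagonal]
    simp [pow_two]
  have hi : Irreducible (X ^ 2 - C l : F[X]) :=
    X_pow_sub_C_irreducible_of_prime Nat.prime_two fun b hb => hl ⟨b, by rw [← hb, pow_two]⟩
  have hM := monic_X_pow_sub_C l two_ne_zero
  obtain ⟨k, -, hk⟩ := (dvd_prime_pow hi.prime _).1 (Dvd.intro _ h6)
  have h := eq_of_monic_of_associated (charpoly_monic g) (hM.pow k) hk
  have hd := congrArg natDegree h
  rw [charpoly_natDegree_eq_dim, hM.natDegree_pow, natDegree_X_pow_sub_C, hm] at hd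
  obtain rfl : k = m := by omega
  rw [det_eq_sign_charpoly_coeff, h, hm, coeff_zero_eq_eval_zero]
  simp

section Abs

open CF.Cls

variable {V : Type*} [AddCommGroup V] [Module F V] [FiniteDimensional F V] [Finite F]
  {R : QuadraticForm F V}

omit [FiniteDimensional F V] in
theorem fix_of_pow [Finite V] {s : OG R} {r n : ℕ} (hs : s ^ r = 1) (hn : n.Coprime r) {v : V}
    (h : (s ^ n).1 v = v) : s.1 v = v := by
  haveI : Finite (V ≃ₗ[F] V) := Finite.of_injective _ DFunLike.coe_injective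
  exact (zpowers_le (H := (MulAction.stabilizer (V ≃ₗ[F] V) v).comap (OG R).subtype)).2 h
    (mem_zpowers_pow_iff.2 (hn.coprime_dvd_right (orderOf_dvd_of_pow_eq_one hs)))

/-- An isometry of odd order without fixed vectors commutes with an isometry of non-trivial spinor
norm. -/
theorem exists_sn_neg_of_unit [Nontrivial V] (h2 : (2 : F) ≠ 0) (hR : (polarBilin R).Nondegenerate)
    {s : OG R} {r : ℕ} (hr : Odd r) (hr0 : (r : F) ≠ 0) (hs : s ^ r = 1)
    (h1 : ∀ v, s.1 v = v → v = 0)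
    (hd : ∀ a : OG R, a * s = s * a → LinearMap.det a.1.toLinearMap = 1) :
    ∃ a : OG R, a * s = s * a ∧ sn a = -1 := by
  haveI : Finite V := Module.finite_of_finite F
  haveI : Finite (End F V) := Finite.of_injective _ DFunLike.coe_injective
  have E := eh_polar hR
  have A := E.isAnti_adj
  let φ : OG R →* End F V := (LinearEquiv.automorphismGroup.toLinearMapMonoidHom).comp
    (OG R).subtype
  have hφ : ∀ a, E.adj (φ a) = φ a⁻¹ := fun a => E.adj_eq fun u v => by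
    exact (OG_polar a _ _).symm.trans (congrArg (polar R · _) (a.1.apply_symm_apply u))
  have hi : ∀ {x}, Commute x (φ s) → Commute x (φ s⁻¹) := fun h =>
    (Commute.units_inv_left (u := φ.toHomUnits s) h.symm).symm
  have ha : ∀ {x}, Commute x (φ s) → Commute (E.adj x) (φ s) := fun h => by
    have := congrArg E.adj (hi h).eq
    rw [A.mul, A.mul, hφ, inv_inv] at this
    exact this.symm
  have hfix : ∀ k v, φ (s ^ 2 ^ k) v = φ (s ^ 2 ^ k)⁻¹ v → v = 0 := fun k v hv => h1 v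
    (fix_of_pow hs ((Nat.coprime_two_left.2 hr).pow_left (k + 1)) (by
      change φ (s ^ 2 ^ (k + 1)) v = v
      rw [pow_succ, pow_mul, pow_two, map_mul, End.mul_apply, hv, ← End.mul_apply, ← map_mul,
        mul_inv_cancel, map_one, End.one_apply]))
  have hun : ∀ x : End F V, (∀ v, x v = E.adj x v → v = 0) → IsUnit (x - E.adj x) := fun x hx => by
    rw [LinearMap.isUnit_iff_ker_eq_bot, LinearMap.ker_eq_bot']
    exact fun v hv => hx v (sub_eq_zero.1 hv)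
  have mk : ∀ x y : End F V, IsUnit y → E.adj x * x = E.adj y * y → x * φ s = φ s * x →
      y * φ s = φ s * y → ∃ a : OG R, a * s = s * a ∧ φ a * y = x := by
    rintro x _ ⟨y, rfl⟩ h3 h4 h5
    have h6 : Pres (polarBilin R) (x * y⁻¹.1) := E.pres_iff.2 (by
      rw [A.mul, mul_assoc, ← mul_assoc _ x, h3, mul_assoc, Units.mul_inv, mul_one, ← A.mul,
        Units.mul_inv, A.one])
    obtain ⟨z, hz⟩ := E.pres_isUnit h6
    have h7 : ∀ v, LinearMap.GeneralLinearGroup.toLinearEquiv z v = (x * y⁻¹.1) v := fun v =>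
      LinearMap.congr_fun hz v
    refine ⟨⟨LinearMap.GeneralLinearGroup.toLinearEquiv z, mem_OG.2 fun v =>
      mul_left_cancel₀ h2 ?_⟩, Subtype.ext (LinearEquiv.ext fun v => ?_), ?_⟩
    · rw [← polar_self', ← polar_self', h7]; exact h6 v v
    · refine (h7 _).trans (Eq.trans ?_ (congrArg s.1 (h7 v).symm))
      change (x * y⁻¹.1 * φ s) v = (φ s * (x * y⁻¹.1)) v
      rw [mul_assoc, (Commute.units_inv_left h5).eq, ← mul_assoc, h4, mul_assoc]
    · exact (congrArg (· * y.1) (LinearMap.ext h7)).trans (Units.inv_mul_cancel_right x y)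
  obtain ⟨c, hc⟩ := exists_sqHom_eq h2 (-1)
  obtain ⟨b, hb, rfl⟩ := (ss_of_pow_eq_one hr0 (f := φ s)
    (by rw [← map_pow, hs, map_one])).detC_eq_top.ge (mem_top c)
  have b1 : b.toLinearMap * φ s = φ s * b.toLinearMap := LinearMap.ext hb
  have b2 : Commute (φ s) (E.adj b.toLinearMap * b.toLinearMap) := ((ha b1).mul_left b1).symm
  have bu : IsUnit b.toLinearMap := (End.isUnit_iff _).2 b.bijective
  obtain ⟨y, y1, y2⟩ := anti_norm A E.adj_adj (θ := φ s) (hun _ fun v hv => hfix 0 v (by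
      simpa [hφ] using hv)) (by rw [hφ, ← map_mul, ← map_mul, mul_inv_cancel, inv_mul_cancel])
    b2.eq ((A.isUnit bu).mul bu) (by rw [A.mul, E.adj_adj])
  have yu : IsUnit y := isUnit_of_mul_isUnit_right (y1 ▸ (A.isUnit bu).mul bu)
  have y3 : Commute y (φ s) := y2 _ rfl (by rw [hφ, ← map_mul, ← map_mul, mul_inv_cancel,
    inv_mul_cancel]) b2.symm.eq
  have y5 : Commute y (E.adj y) := by
    refine y2 _ (ha y3).symm.eq (by rw [hφ]; exact (hi (ha y3)).symm.eq) ?_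
    have := congrArg E.adj (y2 _ b2.eq (by rw [hφ]; exact (hi b2.symm).symm.eq) rfl)
    simpa [A.mul, E.adj_adj, mul_assoc] using this
  obtain ⟨a₀, a1, a2⟩ := mk _ y yu y1.symm b1 y3.eq
  have hy : LinearMap.det y = LinearEquiv.det b := by
    rw [LinearEquiv.coe_det, ← a2, map_mul]
    exact ((congrArg (· * _) (hd a₀ a1)).trans (one_mul _)).symm
  obtain ⟨Y, rfl⟩ := yu
  obtain ⟨k, n, hn, hk⟩ := Nat.exists_eq_two_pow_mul_odd (orderOf_pos Y).ne'
  have y6 : (Y.1 ^ n) ^ 2 ^ k = 1 := by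
    rw [← pow_mul, mul_comm, ← hk, ← Units.val_pow_eq_pow_val, pow_orderOf_eq_one, Units.val_one]
  set z := Y.1 ^ n * φ s with hz
  have z4 : Commute z (φ s) := (y3.pow_left n).mul_left (Commute.refl _)
  have z2 : Commute z (E.adj z) := by
    refine Commute.mul_left ?_ (ha z4).symm
    rw [hz, A.mul, A.pow, hφ]
    exact ((hi y3).pow_left n).mul_right (y5.pow_pow n n)
  have z3 : IsUnit (z - E.adj z) := hun z fun v hv => hfix k v (by
    have h3 : ∀ j, (z ^ j) v = (E.adj z ^ j) v := fun j => by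
      induction j with
      | zero => rfl
      | succ j ih => rw [pow_succ, End.mul_apply, hv, ← End.mul_apply, (z2.pow_left j).eq,
          End.mul_apply, ih, pow_succ', End.mul_apply]
    have h4 : z ^ 2 ^ k = φ (s ^ 2 ^ k) := by rw [hz, (y3.pow_left n).mul_pow, y6, one_mul, map_pow]
    rw [← hφ, ← h4, A.pow]
    exact h3 _)
  have zu : IsUnit z := (Y.isUnit.pow n).mul (φ.toHomUnits s).isUnit
  obtain ⟨a, a3, a4⟩ := mk (E.adj z) z zu (by rw [E.adj_adj, z2.eq]) (ha z4).eq z4.eq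
  have a5 : (1 - φ a) * z = z - E.adj z := by rw [sub_mul, one_mul, a4]
  refine ⟨a, a3, ?_⟩
  let e := Module.finBasis F V
  have g1 : (gram (LinearMap.BilinForm.compRight (polarBilin R) (z - E.adj z)) e).det =
      (gram (polarBilin R) e).det * LinearMap.det (z - E.adj z) := by
    rw [gram_eq_toMatrix, gram_eq_toMatrix, LinearMap.BilinForm.toMatrix_compRight, Matrix.det_mul,
      LinearMap.det_toMatrix]
  have g0 := mul_ne_zero (det_gram_ne_zero hR e) (z3.map LinearMap.det).ne_zero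
  have g2 := isSquare_det_alt (nondegenerate_of_det_gram e (g1 ▸ g0)) (fun v => by
    change polarBilin R v (z v - E.adj z v) = 0
    rw [map_sub, E.adj_right, sub_eq_zero]
    exact polar_comm _ _ _) e
  have g3 : LinearMap.det z = LinearEquiv.det b ^ n := by
    rw [hz, map_mul, map_pow, hy]
    exact (congrArg (_ * ·) (hd s rfl)).trans (mul_one _)
  rw [g1] at g2
  rw [← a5, map_mul, ← mul_assoc, g3] at g0 g2
  rw [sn_of_unit hR (isUnit_of_mul_isUnit_left (a5 ▸ z3))]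
  refine sqSign_of_not fun h => ?_
  rw [isSquare_mul_iff_of_isSquare (left_ne_zero_of_mul g0) h, ← Units.val_pow_eq_pow_val,
    ← sqSign_eq_one_iff] at g2
  change sqHom F _ = 1 at g2
  rw [map_pow, hc, hn.neg_one_pow] at g2
  exact absurd g2 (by decide)

end Abs

variable [Finite F]

theorem negSp_sup (h2 : (2 : F) ≠ 0) {s : Cfsg.isometryGroup F Q} (hs : s * s = 1) :
    finrank F (negSp s.1) + finrank F (negSp (oNg Q * s).1) = Fintype.card ι := by
  have hn : ∀ v, (oNg Q * s).1.1 *ᵥ v = -(s.1.1 *ᵥ v) := fun v => by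
    change (scal ι (-1) * s.1).1 *ᵥ v = _
    rw [Units.val_mul, ← mulVec_mulVec, scal_mulVec]; simp
  have h7 : negSp s.1 ⊔ negSp (oNg Q * s).1 = ⊤ := eq_top_iff.2 fun v _ => by
    have e : s.1.1 *ᵥ (s.1.1 *ᵥ v) = v := by
      rw [mulVec_mulVec, ← Units.val_mul, ← Subgroup.coe_mul, hs]; simp
    rw [← Submodule.smul_mem_iff _ h2, show (2 : F) • v = v - s.1.1 *ᵥ v + (v + s.1.1 *ᵥ v) by
      rw [two_smul]; abel]
    exact Submodule.add_mem_sup (by rw [mem_negSp, mulVec_sub, e, neg_sub])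
      (by rw [mem_negSp, hn, mulVec_add, e, add_comm])
  have h8 : negSp s.1 ⊓ negSp (oNg Q * s).1 = ⊥ := eq_bot_iff.2 fun v ⟨h1, h3⟩ => by
    rw [SetLike.mem_coe, mem_negSp] at h1 h3
    rw [hn, h1, neg_neg, eq_neg_iff_add_eq_zero, ← two_smul F, smul_eq_zero] at h3
    exact h3.resolve_left h2
  rw [← Submodule.finrank_sup_add_finrank_inf_eq, h7, h8]
  simp

theorem oRf_commute {s : Cfsg.isometryGroup F Q} {v : ι → F}
    (h : s.1.1 *ᵥ v = v ∨ s.1.1 *ᵥ v = -v) : Commute (oRf Q v) s := by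
  refine (oEquiv Q).injective ?_
  rw [map_mul, map_mul, oRf, MulEquiv.apply_symm_apply, mul_inv_eq_iff_eq_mul.1 (conj_oRefl _ v),
    oEquiv_apply]
  rcases h with h | h <;> simp [h, oRefl_neg]

namespace EQ

variable (H : EQ Q m)
include H

theorem split_dia {A : Type*} [Group A] (χ : linPart (gamO Q) →* A)
    (hχ : ∀ g, χ g = 1 ↔ g.1 ∈ innG Q) (x : MulAut (Cfsg.POmega F Q)) :
    Cfsg.splitClassCount (idg Q) (Cfsg.Inn _) x =
      (((propG Q).subgroupOf _ ⊓ (centralizer {x}).comap (stab_om Q).dia).map χ).relIndex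
        (((propG Q).subgroupOf _).map χ) := by
  rw [splitClassCount_eq H.inn_le_idg, ← relIndex_sup_map _ χ (stab_om Q).inn_le_range
    (fun g => (hχ g).trans (H.dia_mem_inn g).symm)]
  congr 2
  ext β
  exact ⟨fun ⟨⟨g, h1, e⟩, h2⟩ => ⟨g, ⟨h1, by rwa [← e] at h2⟩, e⟩,
    fun ⟨g, ⟨h1, h2⟩, e⟩ => ⟨⟨g, h1, e⟩, by rwa [← e]⟩⟩

theorem graph_cases (h2 : (2 : F) ≠ 0) {g : linPart (gamO Q)} (hΔ : H.Δ g ≠ 1)
    (hg : (stab_om Q).dia g ^ 2 = 1) :
    (∃ k s, s * s = 1 ∧ H.δ s = -1 ∧ g = scaL Q k * isoL Q s) ∨ ∃ l : Fˣ, ¬ IsSquare (l : F) ∧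
      g * g = scaL Q l ∧ H.μ g = l ∧ Odd m ∧
      ∀ u v, polar Q (g.1.1 *ᵥ u) v = polar Q u (g.1.1 *ᵥ v) := by
  rw [← map_pow, H.model.dia_eq_one_iff, pow_two] at hg
  obtain ⟨l, hl⟩ := mem_scalars.1 hg
  have h1 : ∀ u v, H.μ g * polar Q (g.1.1 *ᵥ u) v = l * polar Q u (g.1.1 *ᵥ v) := fun u v => by
    have := polar_equiv (glEquiv ι F g) (H.μ_spec g) (g.1.1 *ᵥ u) v
    rw [glEquiv_apply, mulVec_mulVec, ← Units.val_mul, ← Subgroup.coe_mul, ← hl,
      scal_mulVec] at this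
    simpa using this.symm
  have h3 : (H.μ g : F) ^ 2 = l ^ 2 := by
    rw [← Units.val_pow_eq_pow_val, ← Units.val_pow_eq_pow_val, ← H.μ_scaL l, ← map_pow, pow_two]
    exact congrArg (fun x => (H.μ x).1) (Subtype.ext hl.symm)
  have h5 : g.1.1 * g.1.1 = (l : F) • 1 := by
    rw [← Units.val_mul, ← Subgroup.coe_mul, ← hl, coe_scal]
  rw [Ne, H.Δ_eq_one, H.mem_propG_odd h2, Units.ext_iff, Units.val_pow_eq_pow_val] at hΔ
  rcases sq_eq_sq_iff_eq_or_eq_neg.1 h3 with h | h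
  · by_cases h4 : IsSquare (l : F)
    · obtain ⟨c, hc⟩ := sqHom_eq_one.1 (sqSign_eq_one_iff.2 h4)
      rw [← Units.val_pow_eq_pow_val, ← Units.ext_iff, ← H.mem_propG_odd h2, ← H.Δ_eq_one] at hΔ
      obtain ⟨s, rfl⟩ := H.exists_eq_scaL g ((Units.ext h).trans hc)
      rw [map_mul, H.Δ_scaL, H.Δ_isoL, one_mul, ← Ne, units_int_ne_one] at hΔ
      refine Or.inl ⟨c, s, Subtype.ext (mul_left_cancel (a := scal ι l) ?_), hΔ, rfl⟩
      rw [OneMemClass.coe_one, mul_one, hc, map_pow]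
      refine Eq.trans ?_ (hl.symm.trans (by rw [hc, map_pow]))
      rw [Subgroup.coe_mul, ← pow_two, ← (scalars_commute (scal_mem c) _).mul_pow, pow_two]
      rfl
    · refine Or.inr ⟨l, h4, Subtype.ext hl.symm, Units.ext h, Nat.not_even_iff_odd.1 fun k => hΔ ?_,
        fun u v => mul_left_cancel₀ l.ne_zero (by rw [← h1, h])⟩
      rw [h, ← k.neg_pow]
      exact det_of_nonsq H.card h5 h4
  · refine absurd ?_ hΔ
    rw [h]
    exact det_of_skew H.nd h2 H.card h5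
      fun u v => mul_left_cancel₀ l.ne_zero (by rw [mul_neg, ← h1, h, neg_mul, neg_neg])

theorem exists_comm_θ (h2 : (2 : F) ≠ 0) {U : Submodule F (ι → F)}
    (hU : (polarBilin (Q.comp U.subtype)).Nondegenerate) (hd : 2 ≤ finrank F U) :
    ∃ t, H.δ t = 1 ∧ H.θ t = -1 ∧ ∀ s : Cfsg.isometryGroup F Q,
      (∀ v ∈ U, s.1.1 *ᵥ v = v ∨ s.1.1 *ᵥ v = -v) → Commute t s := by
  obtain ⟨c, hc⟩ := exists_sqHom_eq h2 (-1)
  obtain ⟨v, hv⟩ := exists_quad_eq hU hd c.ne_zero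
  obtain ⟨w, hw⟩ := exists_quad_eq hU hd (1 : Fˣ).ne_zero
  change Q v.1 = _ at hv
  change Q w.1 = _ at hw
  exact ⟨oRf Q v * oRf Q w, by
    rw [map_mul, H.δ_oRf (hv.trans_ne c.ne_zero), H.δ_oRf (hw.trans_ne (Units.ne_zero 1))]; rfl,
    by rw [map_mul, H.θ_oRf' hv, H.θ_oRf' hw, hc, map_one, mul_one],
    fun s hs => (oRf_commute (hs _ v.2)).mul_left (oRf_commute (hs _ w.2))⟩

theorem exists_comm_graph (h2 : (2 : F) ≠ 0) {g : linPart (gamO Q)} (hΔ : H.Δ g ≠ 1)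
    (hg : (stab_om Q).dia g ^ 2 = 1) : ∃ t, H.δ t = 1 ∧ H.θ t = -1 ∧ Commute (isoL Q t) g := by
  have h5 := H.five
  rcases H.graph_cases h2 hΔ hg with ⟨k, s, h1, -, rfl⟩ | ⟨l, h1, h3, h4, -, h6⟩
  · have hn : ∀ t, Commute t (oNg Q) := fun t => Subtype.ext (scalars_commute (scal_mem _) _).symm
    have key : ∀ s : Cfsg.isometryGroup F Q, s * s = 1 → 2 ≤ finrank F (negSp s.1) →
        ∃ t, H.δ t = 1 ∧ H.θ t = -1 ∧ Commute t s := fun s hs h =>
      (H.exists_comm_θ h2 (H.negSp_spec h2 hs).1 h).imp fun t ht =>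
        ⟨ht.1, ht.2.1, ht.2.2 s fun _ => Or.inr⟩
    obtain ⟨t, t1, t2, t3⟩ : ∃ t, H.δ t = 1 ∧ H.θ t = -1 ∧ Commute t s := by
      have := negSp_sup h2 h1
      by_cases h : 2 ≤ finrank F (negSp s.1)
      · exact key s h1 h
      · obtain ⟨t, t1, t2, t3⟩ := key (oNg Q * s) (by
          rw [(hn s).mul_mul_mul_comm, h1, mul_one]
          exact Subtype.ext (by change scal ι _ * scal ι _ = 1; rw [← map_mul]; simp)) (by omega)
        exact ⟨t, t1, t2, by simpa using (hn t).inv_right.mul_right t3⟩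
    exact ⟨t, t1, t2, Commute.mul_right (Subtype.ext (scalars_commute (scal_mem k) _).symm)
      (t3.map _)⟩
  have g2 : ∀ v, g.1.1 *ᵥ (g.1.1 *ᵥ v) = (l : F) • v := fun v => by
    rw [mulVec_mulVec, ← Units.val_mul, ← Subgroup.coe_mul, h3]; exact scal_mulVec l v
  obtain ⟨v, v1, v2⟩ : ∃ v, Q v ≠ 0 ∧ polar Q v (g.1.1 *ᵥ v) = 0 := by
    obtain ⟨u, u0, u1⟩ := exists_singular_of_three_le (LinearMap.BilinMap.toQuadraticMap
      (LinearMap.BilinForm.compRight (polarBilin Q) (toLin' g.1.1))) (by simp; omega)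
    change polar Q u (g.1.1 *ᵥ u) = 0 at u1
    by_cases u2 : Q u = 0
    swap
    · exact ⟨u, u2, u1⟩
    obtain ⟨w, hw⟩ : ∃ w, polar Q u w = 1 := by
      obtain ⟨w, hw⟩ := not_forall.1 (mt (H.nd.1 u) u0)
      exact ⟨(polar Q u w)⁻¹ • w, by rw [polar_smul_right]; exact inv_mul_cancel₀ hw⟩
    set t := polar Q u (g.1.1 *ᵥ w) with ht
    have t0 : (l : F) - t * t ≠ 0 := fun h => h1 ⟨t, sub_eq_zero.1 h⟩
    obtain ⟨w, w1, w2⟩ : ∃ w, polar Q u w = 1 ∧ polar Q u (g.1.1 *ᵥ w) = 0 :=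
      ⟨(l / (l - t * t)) • w - (t / (l - t * t)) • g.1.1 *ᵥ w, by
        simp only [polar_sub_right, polar_smul_right, hw, ← ht, smul_eq_mul]
        rw [mul_one, div_mul_eq_mul_div, ← sub_div, div_self t0], by
        simp only [mulVec_sub, mulVec_smul, g2, polar_sub_right, polar_smul_right, hw, ← ht,
          smul_eq_mul]; ring⟩
    have e1 : polar Q u u = 0 := by rw [polar_self', u2, mul_zero]
    refine ⟨w + (1 - Q w) • u + (-polar Q w (g.1.1 *ᵥ w) / (2 * l)) • g.1.1 *ᵥ u, ?_, ?_⟩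
    · simp only [quad_add, quad_smul, polar_add_left, polar_smul_left, polar_smul_right, H.μ_spec,
        u1, u2, ← h6 w, polar_comm Q _ u, w1, w2]
      simp
    · simp only [mulVec_add, mulVec_smul, g2, polar_add_left, polar_add_right, polar_smul_left,
        polar_smul_right, h6 u, u1, e1, w1, w2, polar_comm Q w u, smul_eq_mul]
      rw [← h6 w u, polar_comm Q _ u, w2]
      field_simp
      ring
  have hγ : ∀ w, Q (semi (linIncl _ g).1 w) = l * (linIncl _ g).1.right (Q w) := fun w => by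
    rw [coe_linIncl, semi_inl, H.μ_spec, h4]; rfl
  have c1 : ∀ w, g * isoL Q (oRf Q w) * g⁻¹ = isoL Q (oRf Q (g.1.1 *ᵥ w)) := fun w => by
    rw [← semi_inl, ← coe_linIncl, ← isomHom_oRf hγ, ← cj_isoL, cj_linIncl]
  have v3 : Q (g.1.1 *ᵥ v) = l * Q v := by rw [H.μ_spec, h4]
  have v4 := v3.trans_ne (mul_ne_zero l.ne_zero v1)
  refine ⟨oRf Q v * oRf Q (g.1.1 *ᵥ v), by rw [map_mul, H.δ_oRf v1, H.δ_oRf v4]; rfl, ?_, ?_⟩
  · rw [map_mul, H.θ_oRf v1, H.θ_oRf v4, v3, sqSign_mul _ _ l.ne_zero v1, sqSign_of_not h1,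
      mul_left_comm, Int.units_mul_self, mul_one]
  · refine (mul_inv_eq_iff_eq_mul.1 ?_).symm
    rw [map_mul, ← conj_mul, c1, c1, g2, ← map_mul, ← map_mul, show oRf Q ((l : F) • v) = oRf Q v
      from congrArg (oEquiv Q).symm (oRefl_smul l.ne_zero v), (oRf_commute (Or.inl _)).eq]
    rw [oRf_mulVec, v2, mul_zero, zero_smul, sub_zero]

theorem sq_of_even (h2 : (2 : F) ≠ 0) (hm : Even m) {g h : linPart (gamO Q)} (hΔ : H.Δ g ≠ 1)
    (hg : (stab_om Q).dia g ^ 2 = 1) (hc : Commute ((stab_om Q).dia h) ((stab_om Q).dia g)) :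
    sqHom F (H.μ h) = 1 := by
  haveI := H.nonempty
  rcases H.graph_cases h2 hΔ hg with ⟨k, s, h1, h3, rfl⟩ | ⟨l, -, -, -, h4, -⟩
  swap
  · exact absurd hm (Nat.not_even_iff_odd.2 h4)
  rw [map_mul, (H.model.dia_eq_one_iff (scaL Q k)).2 (scal_mem k), one_mul] at hc
  obtain ⟨z, hz⟩ := mem_scalars.1 ((H.model.dia_eq_one_iff (h * isoL Q s * h⁻¹ * (isoL Q s)⁻¹)).1
    (by simp [hc.eq]))
  have e : ∀ v, h.1.1 *ᵥ (s.1.1 *ᵥ v) = (z : F) • s.1.1 *ᵥ (h.1.1 *ᵥ v) := fun v => by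
    rw [← scal_mulVec, hz, mulVec_mulVec, mulVec_mulVec, mulVec_mulVec, ← Units.val_mul,
      ← Units.val_mul, ← Units.val_mul]
    change _ = (h.1 * s.1 * h.1⁻¹ * s.1⁻¹ * s.1 * h.1).1 *ᵥ v
    congr 2; group
  obtain ⟨N, hN⟩ := H.negSp_spec h2 h1
  have ho : Odd (finrank F (negSp s.1)) := Nat.not_even_iff_odd.1 fun k => by
    simpa [h3, k] using hN
  have s2 : ∀ v, s.1.1 *ᵥ (s.1.1 *ᵥ v) = v := fun v => by
    rw [mulVec_mulVec, ← Units.val_mul, ← Subgroup.coe_mul, h1]; simp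
  have key : ∀ t : Cfsg.isometryGroup F Q, (∀ v, t.1.1 *ᵥ v = (z : F) • s.1.1 *ᵥ v) →
      ∃ E : negSp s.1 ≃ₗ[F] negSp t.1, ∀ v, (E v).1 = h.1.1 *ᵥ v := fun t ht =>
    ⟨(glEquiv ι F h).ofSubmodules _ _ (by
      ext v
      obtain ⟨v, rfl⟩ := (glEquiv ι F h).surjective v
      rw [Submodule.mem_map_equiv, LinearEquiv.symm_apply_apply, mem_negSp, mem_negSp, ht,
        glEquiv_apply, ← e, ← mulVec_neg]
      exact (glEquiv ι F h).injective.eq_iff.symm), fun _ => rfl⟩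
  obtain ⟨v, hv⟩ := exists_ne (0 : ι → F)
  have z2 : (z : F) * z = 1 := smul_left_injective F (mt (glEquiv ι F h).map_eq_zero_iff.1 hv) (by
    have := e (s.1.1 *ᵥ v)
    rw [s2, e, mulVec_smul, s2, smul_smul] at this
    simpa using this.symm)
  rcases mul_self_eq_one_iff.1 z2 with hz1 | hz1
  · obtain ⟨E, hE⟩ := key s (by simp [hz1])
    have := CF.Cls.ds_equiv N E (Q' := Q.comp (negSp s.1).subtype) (H.μ h).ne_zero fun v =>
      (congrArg Q (hE v)).trans (H.μ_spec h v)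
    rw [right_eq_mul] at this
    rcases Int.units_eq_one_or (sqSign (H.μ h : F)) with k | k
    · exact k
    · rw [k, ho.neg_one_pow] at this; exact absurd this (by decide)
  · obtain ⟨E, -⟩ := key (oNg Q * s) fun v => by
      change (scal ι (-1) * s.1).1 *ᵥ v = _
      rw [Units.val_mul, ← mulVec_mulVec, scal_mulVec, hz1]; rfl
    have := negSp_sup h2 h1
    rw [← E.finrank_eq, H.card, ← two_mul, mul_right_inj' two_ne_zero] at this
    exact absurd hm (Nat.not_even_iff_odd.2 (this ▸ ho))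

theorem split_graph (h2 : (2 : F) ≠ 0) {g : linPart (gamO Q)} (hΔ : H.Δ g ≠ 1)
    (hg : (stab_om Q).dia g ^ 2 = 1) :
    (Cfsg.splitClassCount (idg Q) (Cfsg.Inn _) ((stab_om Q).dia g) = 1 ∨
      Cfsg.splitClassCount (idg Q) (Cfsg.Inn _) ((stab_om Q).dia g) = 2) ∧
    (H.θ (oNg Q) = 1 ∨ Even m →
      Cfsg.splitClassCount (idg Q) (Cfsg.Inn _) ((stab_om Q).dia g) = 2) := by
  rcases Int.units_eq_one_or (H.θ (oNg Q)) with hn | hn
  · obtain ⟨χ, D⟩ := H.exists_d8 h2 hn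
    obtain ⟨t, t1, t2, t3⟩ := H.exists_comm_graph h2 hΔ hg
    suffices h : _ = 2 from ⟨Or.inr h, fun _ => h⟩
    obtain ⟨ε, hε, h4, hε'⟩ : ∃ ε : DihedralGroup 4 →* ℤˣ, (∀ g, H.Δ g = ε (χ g)) ∧
        Nat.card ε.ker = 4 ∧ ∀ x y, ε x = 1 → ε y ≠ 1 → x * y = y * x → x = 1 ∨ x = r 2 := by
      rcases Nat.even_or_odd m with h | h
      · exact ⟨dA * dB, D.even h, by
          rw [← range_dFour, ← Nat.card_congr (MonoidHom.ofInjective dFour_injective).toEquiv,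
            card_zmod_prod], by decide⟩
      · exact ⟨dA, D.odd h, by
          rw [← range_dRot, ← Nat.card_congr (MonoidHom.ofInjective dRot_injective).toEquiv,
            Nat.card_congr Multiplicative.toAdd, Nat.card_zmod], by decide⟩
    have h5 : ((propG Q).subgroupOf _ ⊓ (centralizer {(stab_om Q).dia g}).comap
        (stab_om Q).dia).map χ = zpowers (r 2) := by
      refine le_antisymm ?_ (zpowers_le.2 ⟨isoL Q t, ⟨(H.isom_mem_propG t).2 t1,
        mem_centralizer_singleton_iff.2 (t3.map _)⟩, D.so_eq t1 t2⟩)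
      rintro _ ⟨h, ⟨h1, h3⟩, rfl⟩
      rcases hε' (χ h) (χ g) (hε h ▸ (H.Δ_eq_one h).2 h1) (hε g ▸ hΔ) (by
        rw [← map_mul, ← map_mul, ← mul_inv_eq_one, ← map_inv, ← map_mul, D.ker, ← H.dia_mem_inn,
          map_mul, map_inv, map_mul, map_mul, mem_centralizer_singleton_iff.1 h3, mul_inv_cancel]
        exact one_mem _) with k | k <;> simp [k]
    have := relIndex_mul_card' (map_mono (f := χ) (inf_le_left (a := (propG Q).subgroupOf _)
      (b := (centralizer {(stab_om Q).dia g}).comap (stab_om Q).dia)))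
    rw [← H.split_dia χ D.ker, h5, D.map_propG hε, h4, Nat.card_zpowers,
      show orderOf (r 2 : DihedralGroup 4) = 2 from orderOf_eq_prime (by decide) (by decide)] at this
    omega
  have h4 : ((propG Q).subgroupOf _).map H.χ₂ = zpowers (1, -1) := by
    refine le_antisymm ?_ (zpowers_le.2 ?_)
    · rintro _ ⟨h, h1, rfl⟩
      rw [show H.χ₂ h = (1, sqHom F (H.μ h)) from Prod.ext ((H.Δ_eq_one h).2 h1) rfl]
      rcases Int.units_eq_one_or (sqHom F (H.μ h)) with k | k <;> rw [k]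
      exacts [one_mem _, mem_zpowers _]
    · obtain ⟨h, h1⟩ := H.χ₂_surjective h2 (1, -1)
      exact ⟨h, (H.Δ_eq_one h).1 (congrArg Prod.fst h1), h1⟩
  have := relIndex_mul_card' (map_mono (f := H.χ₂) (inf_le_left (a := (propG Q).subgroupOf _)
    (b := (centralizer {(stab_om Q).dia g}).comap (stab_om Q).dia)))
  rw [← H.split_dia _ (H.mem_innG_neg hn), h4, Nat.card_zpowers,
    show orderOf ((1, -1) : ℤˣ × ℤˣ) = 2 from orderOf_eq_prime (by decide) (by decide)] at this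
  refine ⟨(Nat.dvd_prime Nat.prime_two).1 (Dvd.intro _ this), fun h => ?_⟩
  rwa [(Subgroup.map_eq_bot_iff (_ ⊓ _)).2 fun k hk => Prod.ext ((H.Δ_eq_one k).2 hk.1)
    (H.sq_of_even h2 (h.resolve_left (by rw [hn]; decide)) hΔ hg
      (mem_centralizer_singleton_iff.1 hk.2)), card_bot, mul_one] at this

theorem exists_odd_isom {g : linPart (gamO Q)} {r : ℕ} (hr : Odd r)
    (hg : (stab_om Q).dia g ^ r = 1) :
    ∃ s, s ^ r = 1 ∧ (stab_om Q).dia g = (stab_om Q).dia (isoL Q s) := by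
  have k0 : ∀ k, (stab_om Q).dia (scaL Q k) = 1 := fun k =>
    (H.model.dia_eq_one_iff (scaL Q k)).2 (scal_mem k)
  have key : ∀ g : linPart (gamO Q), (stab_om Q).dia g ^ r = 1 → ∃ z, g ^ r = scaL Q z ∧
      H.μ g ^ r = z ^ 2 := fun g hg => by
    rw [← map_pow, H.model.dia_eq_one_iff] at hg
    obtain ⟨z, hz⟩ := mem_scalars.1 hg
    have : g ^ r = scaL Q z := Subtype.ext hz.symm
    exact ⟨z, this, by rw [← map_pow, this, H.μ_scaL]⟩
  obtain ⟨z, -, h1⟩ := key g hg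
  rcases sq_cases (H.μ g) with ⟨k, hk⟩ | hk
  swap
  · have := congrArg (sqHom F) h1
    rw [sqHom_sq, map_pow, hk, hr.neg_one_pow] at this
    exact absurd this (by decide)
  obtain ⟨s, rfl⟩ := H.exists_eq_scaL g hk
  rw [map_mul, k0, one_mul] at hg ⊢
  obtain ⟨w, h3, h4⟩ := key _ hg
  rw [H.μ_isoL, one_pow, eq_comm, Units.ext_iff, Units.val_pow_eq_pow_val, Units.val_one,
    pow_two, mul_self_eq_one_iff] at h4
  rcases h4 with h | h
  · exact ⟨s, Subgroup.inclusion_injective (isom_le_linPart Q) ((map_pow _ _ _).trans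
      (h3.trans (by rw [show w = 1 from Units.ext h, map_one, map_one]))), rfl⟩
  · refine ⟨oNg Q * s, Subgroup.inclusion_injective (isom_le_linPart Q) ?_, by
      rw [map_mul, map_mul, show isoL Q (oNg Q) = scaL Q (-1) from rfl, k0, one_mul]⟩
    change isoL Q _ = isoL Q 1
    rw [map_pow, map_mul, show isoL Q (oNg Q) = scaL Q (-1) from rfl,
      (show Commute (scaL Q (-1)) (isoL Q s) from
        Subtype.ext (scalars_commute (scal_mem _) _)).mul_pow, h3, ← map_pow, ← map_mul, hr.neg_one_pow,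
      show w = -1 from Units.ext h]
    simp

theorem δ_eq_RU (s) : H.δ s = (-1) ^ finrank F (CF.Cls.RU (oEquiv Q s).1) := by
  refine H.induction (P := fun s => H.δ s = (-1) ^ finrank F (CF.Cls.RU (oEquiv Q s).1))
    (by rw [map_one, map_one, (CF.Cls.finrank_RU_eq_zero (t := (1 : OG Q).1)).2 rfl, pow_zero]) (fun v s hv hs => ?_) s
  have := (CF.Cls.finrank_RU_oRefl_mul H.nd hv (oEquiv Q s)).neg_one_pow (α := ℤˣ)
  rw [map_mul, map_mul, H.δ_oRf hv, hs, oRf, MulEquiv.apply_symm_apply]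
  refine (congrArg (· * _) this.symm).trans ?_
  rw [pow_add, mul_assoc, Int.units_mul_self, mul_one]

section Odd

variable (h2 : (2 : F) ≠ 0) {s : Cfsg.isometryGroup F Q} {r : ℕ} (hr : Odd r) (hr0 : (r : F) ≠ 0)
  (hs : s ^ r = 1)
include h2 hr hr0 hs

theorem fix_cases : (∃ U : Submodule F (ι → F), (polarBilin (Q.comp U.subtype)).Nondegenerate ∧
    2 ≤ finrank F U ∧ ∀ v ∈ U, s.1.1 *ᵥ v = v) ∨ ((∀ v, s.1.1 *ᵥ v = v → v = 0) ∧
      ∀ h, Commute h (isoL Q s) → H.Δ h = 1) := by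
  have W := isWittPair_quad Q H.nd
  have hs' : oEquiv Q s ^ r = 1 := by rw [← map_pow, hs, map_one]
  have hd := (CF.Cls.eh_polar H.nd).disjoint_Rg (A := (oEquiv Q s).1.toLinearMap)
    (OG_polar (oEquiv Q s)) (c := 1) (by simp) hr0
    ((map_pow (LinearEquiv.automorphismGroup.toLinearMapMonoidHom.comp (OG Q).subtype) _ _).symm.trans
      (by rw [hs', map_one]))
  rw [CF.Cls.Rg, map_one] at hd
  have hm := @CF.Cls.mem_perp_RU _ _ _ _ _ _ _ H.nd (oEquiv Q s)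
  by_cases h0 : perp (polarBilin Q) (CF.Cls.RU (oEquiv Q s).1) = ⊥
  swap
  · refine Or.inl ⟨_, nondegenerate_comp_subtype (W.disjoint_perp_perp hd), ?_, fun v => hm.1⟩
    have h1 := W.finrank_perp (CF.Cls.RU (oEquiv Q s).1)
    have h3 := H.δ_eq_RU s
    rw [eq_one_of_pow_coprime (Nat.coprime_two_right.2 hr) (by rw [← map_pow, hs, map_one])
      (Int.units_sq (H.δ s)), eq_comm, neg_one_pow_eq_one_iff_even (by decide), Nat.even_iff] at h3
    have := Submodule.finrank_eq_zero.not.2 h0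
    rw [CF.Cls.RU] at h1 h3 this
    rw [H.finrank_eq] at h1
    omega
  have h1 : ∀ v, s.1.1 *ᵥ v = v → v = 0 := fun v hv => (h0 ▸ hm.2 hv :)
  refine Or.inr ⟨h1, fun h hc => (H.Δ_eq_one h).2 ((H.mem_propG_odd h2 h).2 ?_)⟩
  let B := LinearMap.BilinForm.compRight (polarBilin Q) (toLin' (s.1.1 - s⁻¹.1.1))
  have hB : ∀ u v, B u v = polar Q u (s.1.1 *ᵥ v) - polar Q (s.1.1 *ᵥ u) v := fun u v => by
    change polar Q u ((s.1.1 - s⁻¹.1.1) *ᵥ v) = _
    rw [sub_mulVec, polar_sub_right, ← OG_polar (oEquiv Q s) u (s⁻¹.1.1 *ᵥ v), oEquiv_apply,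
      oEquiv_apply, mulVec_mulVec, Subgroup.coe_inv, Units.mul_inv, one_mulVec]
  have hA : B.IsAlt := fun v => by rw [hB, polar_comm, sub_self]
  have h3 : ∀ v, (∀ u, B u v = 0) → v = 0 := fun v hv => h1 v (fix_of_pow hs'
    (Nat.coprime_two_left.2 hr) (by
      have := sub_eq_zero.1 ((sub_mulVec _ _ _).symm.trans (H.nd.2 _ hv))
      rw [← map_pow, pow_two, oEquiv_apply, Subgroup.coe_mul, Units.val_mul, ← mulVec_mulVec, this,
        mulVec_mulVec, Subgroup.coe_inv, Units.mul_inv, one_mulVec]))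
  have h4 : ∀ v, s.1.1 *ᵥ (h.1.1 *ᵥ v) = h.1.1 *ᵥ (s.1.1 *ᵥ v) := fun v => by
    rw [mulVec_mulVec, mulVec_mulVec]
    exact congrArg (fun x : linPart (gamO Q) => x.1.1 *ᵥ v) hc.symm
  refine det_sim_alt ⟨fun u hu => h3 u fun v => hA.isRefl _ _ (hu v), h3⟩ hA H.card fun u v => ?_
  have k := polar_equiv (glEquiv ι F h) (H.μ_spec h)
  simp only [glEquiv_apply, polarBilin_apply_apply] at k
  rw [hB, hB, h4, h4, k, k, mul_sub]

theorem exists_comm_mult (c : Fˣ) : ∃ h, H.Δ h = 1 ∧ H.μ h = c ∧ Commute h (isoL Q s) := by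
  obtain ⟨t, t1, -⟩ := H.exists_twist h2 c
  obtain ⟨u, hu⟩ := H.exists_eq_scaL (t⁻¹ * isoL Q s * t) (k := 1) (by simp [H.μ_isoL])
  rw [map_one, one_mul] at hu
  obtain ⟨Y, y1, y2⟩ := CF.Cls.quad_isom_of_sim H.nd (f := toLin' s.1.1) (f' := toLin' u.1.1)
    (OG_map (oEquiv Q s)) (OG_map (oEquiv Q u)) ⟨glEquiv ι F t⁻¹, fun v => by
      rw [glEquiv_apply, glEquiv_apply, toLin'_apply, toLin'_apply, mulVec_mulVec, mulVec_mulVec]
      exact congrArg (fun x : linPart (gamO Q) => x.1.1 *ᵥ v) (eq_mul_inv_of_mul_eq hu)⟩ hr0 hr (by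
      rw [← toLin'_pow, ← Units.val_pow_eq_pow_val, ← Subgroup.coe_pow, hs]; exact toLin'_one)
  let y := (oEquiv Q).symm ⟨Y, mem_OG.2 y1⟩
  have y3 : y * s = u * y := (oEquiv Q).injective (by
    rw [map_mul, map_mul, MulEquiv.apply_symm_apply]
    exact Subtype.ext (LinearEquiv.ext y2))
  have y4 : Commute (t * isoL Q y) (isoL Q s) := by
    rw [Commute, SemiconjBy, mul_assoc, ← map_mul, y3, map_mul, ← hu]; group
  have y5 : H.μ (t * isoL Q y) = c := by rw [map_mul, t1, H.μ_isoL, mul_one]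
  rcases H.fix_cases h2 hr hr0 hs with ⟨U, u1, u2, u3⟩ | ⟨-, h⟩
  swap
  · exact ⟨_, h _ y4, y5, y4⟩
  rcases Int.units_eq_one_or (H.Δ (t * isoL Q y)) with h | h
  · exact ⟨_, h, y5, y4⟩
  obtain ⟨v, hv⟩ := exists_quad_eq u1 u2 one_ne_zero
  change Q v.1 = _ at hv
  exact ⟨t * isoL Q y * isoL Q (oRf Q v), by
    rw [map_mul, h, H.Δ_isoL, H.δ_oRf (hv.trans_ne one_ne_zero)]; rfl,
    by rw [map_mul, y5, H.μ_isoL, mul_one],
    y4.mul_left ((oRf_commute (Or.inl (u3 _ v.2))).map _)⟩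

theorem exists_comm_so : ∃ t, H.δ t = 1 ∧ H.θ t = -1 ∧ Commute t s := by
  haveI := H.nonempty
  rcases H.fix_cases h2 hr hr0 hs with ⟨U, u1, u2, u3⟩ | ⟨h1, h⟩
  · exact (H.exists_comm_θ h2 u1 u2).imp fun t ht =>
      ⟨ht.1, ht.2.1, ht.2.2 s fun v hv => Or.inl (u3 v hv)⟩
  have h3 : ∀ a, oEquiv Q a * oEquiv Q s = oEquiv Q s * oEquiv Q a → Commute a s := fun a ha =>
    (oEquiv Q).injective (by rwa [map_mul, map_mul])
  have h4 : ∀ a, Commute a s → H.δ a = 1 := fun a ha => H.Δ_isoL a ▸ h _ (ha.map _)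
  obtain ⟨a, a1, a2⟩ := exists_sn_neg_of_unit h2 H.nd (s := oEquiv Q s) hr hr0
    (by rw [← map_pow, hs, map_one]) h1 fun a ha => by
      obtain ⟨a, rfl⟩ := (oEquiv Q).surjective a
      exact (det_glEquiv a.1).trans (congrArg Units.val ((H.det_eq_one_iff h2 a).2 (h4 a (h3 a ha))))
  obtain ⟨a, rfl⟩ := (oEquiv Q).surjective a
  refine ⟨a, h4 a (h3 a a1), units_int_ne_one.1 fun k => ?_, h3 a a1⟩
  have := ((CF.Cls.mem_commutator_iff_sn h2 H.nd _).1 ((mem_Omega_iff Q a).1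
    ((H.mem_omega a).2 ⟨h4 a (h3 a a1), k⟩))).2
  rw [a2] at this
  exact absurd this (by decide)

end Odd

theorem class_fusion (h2 : (2 : F) ≠ 0) {x : MulAut (Cfsg.POmega F Q)} (hx : x ∈ Cfsg.pgoAut F Q)
    {r : ℕ} (hr : Odd r) (hr0 : (r : F) ≠ 0) (hxr : x ^ r = 1) :
    (∀ y, (Cfsg.IsConjUnder (Cfsg.Inn (Cfsg.POmega F Q)) x y ↔ Cfsg.IsConjUnder (idg Q) x y) ∧
      (Cfsg.IsConjUnder (Cfsg.psoAut F Q) x y ↔ Cfsg.IsConjUnder (idg Q) x y)) ∧
    ∀ y, Cfsg.IsConjUnder (Cfsg.poAut F Q) x y ↔ Cfsg.IsConjUnder (Cfsg.pgoAut F Q) x y := by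
  obtain ⟨g, rfl⟩ := (pgoAut_eq Q).le hx
  obtain ⟨s, hs, e⟩ := H.exists_odd_isom hr hxr
  rw [e]
  have k0 : ∀ k, (stab_om Q).dia (scaL Q k) = 1 := fun k =>
    (H.model.dia_eq_one_iff (scaL Q k)).2 (scal_mem k)
  have key : ∀ h : linPart (gamO Q), ∃ u c, H.δ u = H.Δ h ∧ Commute c (isoL Q s) ∧
      (stab_om Q).dia h = (stab_om Q).dia (isoL Q u) * (stab_om Q).dia c := fun h => by
    obtain ⟨c, c1, c2, c3⟩ := H.exists_comm_mult h2 hr hr0 hs (H.μ h)
    obtain ⟨u, hu⟩ := H.exists_eq_scaL (h * c⁻¹) (k := 1) (by simp [c2])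
    rw [map_one, one_mul] at hu
    exact ⟨u, c, by rw [← H.Δ_isoL, ← hu, map_mul, map_inv, c1, inv_one, mul_one], c3,
      by rw [← hu, ← map_mul, inv_mul_cancel_right]⟩
  have conj : ∀ {a : MulAut (Cfsg.POmega F Q)} {c}, Commute c (isoL Q s) →
      a * (stab_om Q).dia c * (stab_om Q).dia (isoL Q s) * (a * (stab_om Q).dia c)⁻¹ =
        a * (stab_om Q).dia (isoL Q s) * a⁻¹ := fun h => by
    rw [mul_assoc _ _ ((stab_om Q).dia (isoL Q s)), (h.map _).eq]; group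
  have i1 : Cfsg.psoAut F Q ≤ idg Q := by
    rw [psoAut_eq]
    exact map_mono fun g hg => (H.isom_mem_propG ⟨g, hg.1⟩).2 ((H.det_eq_one_iff h2 _).1 hg.2)
  have i2 : Cfsg.Inn (Cfsg.POmega F Q) ≤ Cfsg.psoAut F Q := fun β hβ => by
    obtain ⟨g, rfl⟩ := (stab_om Q).inn_le_range hβ
    exact (H.χ₂_eq_one_iff_pso h2 g).1 (Prod.ext ((H.Δ_eq_one g).2 (H.innG_le_propG
      ((H.dia_mem_inn g).1 hβ))) (H.innG_sq ((H.dia_mem_inn g).1 hβ)))
  have i3 : ∀ y, Cfsg.IsConjUnder (idg Q) ((stab_om Q).dia (isoL Q s)) y →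
      Cfsg.IsConjUnder (Cfsg.Inn _) ((stab_om Q).dia (isoL Q s)) y := by
    rintro _ ⟨_, ⟨h, h1, rfl⟩, rfl⟩
    obtain ⟨u, c, u1, u2, u3⟩ := key h
    rw [(H.Δ_eq_one h).2 h1] at u1
    rw [u3, conj u2]
    rcases Int.units_eq_one_or (H.θ u) with k | k
    · exact ⟨_, (H.dia_mem_inn _).2 (omega_mem_innG ((H.mem_omega u).2 ⟨u1, k⟩)), rfl⟩
    obtain ⟨t, t1, t2, t3⟩ := H.exists_comm_so h2 hr hr0 hs
    refine ⟨_, (H.dia_mem_inn (isoL Q (u * t))).2 (omega_mem_innG ((H.mem_omega (u * t)).2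
      ⟨by rw [map_mul, u1, t1, mul_one], by rw [map_mul, k, t2]; rfl⟩)), ?_⟩
    rw [map_mul, map_mul, conj (t3.map _)]
  refine ⟨fun y => ⟨⟨isConjUnder_mono H.inn_le_idg, i3 y⟩, isConjUnder_mono i1,
    fun h => isConjUnder_mono i2 (i3 y h)⟩, fun y => ?_⟩
  rw [poAut_eq, pgoAut_eq]
  refine ⟨isConjUnder_mono (map_le_range _ _), ?_⟩
  rintro ⟨_, ⟨h, rfl⟩, rfl⟩
  obtain ⟨u, c, -, u2, u3⟩ := key h
  exact ⟨_, ⟨isoL Q u, u.2, rfl⟩, by rw [u3, conj u2]⟩

end EQ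

theorem OQ.isPlus_of_semi (H : EQ Q m) (h2 : (2 : F) ≠ 0) {γ : gamO Q}
    (h1 : orderOf ((stab_om Q).psi γ) = 2) (h3 : orderOf γ.1.right = 2) : IsPlus Q := by
  haveI := Fintype.ofFinite F
  obtain ⟨t, s, h, Q', e, S, hs⟩ := H.exists_lang h1 h3
  obtain ⟨F₀, _, _, i, E⟩ := exists_fixEmb_of_finite γ.1.right
  obtain ⟨Q₀, X⟩ := exists_desc E S
  have H' : EQ Q' m := ⟨H.of_mult hs, H.card⟩
  rw [← isPlus_iff_of_equiv (glEquiv _ F h) s.ne_zero hs,
    isPlus_iff_isSquare h2 H'.nd H'.finrank_eq (Pi.basisFun F ι)]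
  convert E.isSquare_two h3 ((-1) ^ m * (gram (polarBilin Q₀) (Pi.basisFun F₀ ι)).det)
  rw [map_mul, map_pow, map_neg, map_one, RingHom.map_det]
  congr 2
  ext a b
  simp [← X.polar, comp_single]

theorem plus_split [Fintype F] (hodd : Odd (Fintype.card F)) (hm : 4 ≤ m)
    {γ : MulAut (Cfsg.POmega F (qPlus m F))} (hγ : Cfsg.IsSimilarityGraphAutPOmegaPlus m γ)
    (hγ2 : orderOf γ = 2) :
    (Cfsg.splitClassCount (Cfsg.inndiagPOmegaPlus m F) (Cfsg.Inn _) γ = 1 ∨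
      Cfsg.splitClassCount (Cfsg.inndiagPOmegaPlus m F) (Cfsg.Inn _) γ = 2) ∧
    (¬ (Odd m ∧ Fintype.card F % 4 = 3) →
      Cfsg.splitClassCount (Cfsg.inndiagPOmegaPlus m F) (Cfsg.Inn _) γ = 2) := by
  have h2 := two_ne_zero_of_odd_card hodd
  have H := eq_plus (F := F) (by omega : 3 ≤ m)
  obtain ⟨g, h1, h3, h4⟩ := hγ
  lift g to linPart (gamO (qPlus m F)) using mem_linPart_gamO.2 h1
  obtain rfl := (isInducedPOmega_refl_iff g γ).1 h4
  rw [inndiagPlus_eq (by omega)]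
  exact (H.split_graph h2 (g := g) (fun k => h3 ((H.preserves_iff (isPlus_qPlus m) g).2
    ((H.Δ_eq_one g).1 k))) (orderOf_dvd_iff_pow_eq_one.1 hγ2.dvd)).imp_right
    fun k h => k (Or.inl ((θ_plus h2 (by omega)).2 h))

theorem minus_split [Fintype F] (hodd : Odd (Fintype.card F)) (hm : 3 ≤ m) {a b : F}
    (hab : Aniso a b) {γ : MulAut (Cfsg.POmega F (qMinus m F a b))}
    (hγ : Cfsg.IsGraphAutClassPOmegaMinus m a b γ) (hγ2 : orderOf γ = 2) :
    (Cfsg.splitClassCount (Cfsg.inndiagPOmegaMinus m F a b) (Cfsg.Inn _) γ = 1 ∨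
      Cfsg.splitClassCount (Cfsg.inndiagPOmegaMinus m F a b) (Cfsg.Inn _) γ = 2) ∧
    (¬ (Even m ∧ Fintype.card F % 4 = 1) →
      Cfsg.splitClassCount (Cfsg.inndiagPOmegaMinus m F a b) (Cfsg.Inn _) γ = 2) := by
  have h2 := two_ne_zero_of_odd_card hodd
  have H := eq_minus (by omega : 2 ≤ m) hab
  obtain ⟨h1, h3, -⟩ := hγ
  obtain ⟨δ, rfl⟩ := (gammaPOmega_eq _).le h1
  rw [inndiagMinus_eq (by omega) hab] at h3 ⊢
  by_cases h0 : (stab_om _).psi δ ∈ (stab_om (qMinus m F a b)).dia.range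
  swap
  · exact absurd (OQ.isPlus_of_semi H h2 hγ2 (H.model.orderOf_right Nat.prime_two hγ2 h0))
      (not_isPlus_qMinus m hab)
  obtain ⟨g, hg⟩ := h0
  rw [← hg] at hγ2 h3 ⊢
  refine (H.split_graph h2 (mt (H.dia_mem_idg g).2 h3) (orderOf_dvd_iff_pow_eq_one.1 hγ2.dvd)).imp_right
    fun k h => k ?_
  rw [θ_minus h2 (by omega) hab, Nat.even_add_one]
  rw [Nat.odd_iff] at hodd
  by_cases he : Even m
  · exact Or.inl ⟨he, by have := not_and.1 h he; omega⟩
  · exact Or.inr he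

end CF.Known
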