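import Cfsg.Agent.Known.Aut.Orth
import Cfsg.Agent.Known.Aut.PSp

/-!
Symplectic groups are not isomorphic to orthogonal groups of large dimension in odd
characteristic.
-/

set_option autoImplicit false

namespace CF.Known

open Module

variable {F : Type*} [Field F] {V V' : Type*} [AddCommGroup V] [Module F V]
  [AddCommGroup V'] [Module F V']
variable {G : Subgroup (V ≃ₗ[F] V)} {G' : Subgroup (V' ≃ₗ[F] V')}

theorem no_corr_tv_root [Finite F] [Finite V] [Finite V'] {j : F →+* F} {ε : F}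
    {P : Polar j ε V} {P' : Polar (RingHom.id F) 1 V'} (c : Corr G G') (hG : P.Adm G)
    (hB : P.Big) (hl : ∃ a : F, ε * j a ≠ a) (hex : ∃ e, P.Sing e ∧ e ≠ 0) (hG' : P'.Adm G')
    (hQ : P'.Quad) (h7 : 7 ≤ finrank F V') : False := by
  obtain ⟨p, hp⟩ := CharP.exists F
  haveI : Fact p.Prime := ⟨CharP.char_is_prime F p⟩
  haveI : Finite (V ≃ₗ[F] V) := finite_linearEquiv
  haveI : Finite (V' ≃ₗ[F] V') := finite_linearEquiv
  obtain ⟨e, e0, se, -⟩ := hQ.exists_sing ![] (by omega)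
  obtain ⟨f, a, d, h⟩ := hQ.exists_hyp2 (by omega) se e0
  obtain ⟨b, b0, sb, hb⟩ := hQ.exists_sing ![e, f, a, d] h7
  have hbW : P'.W e f b := ⟨hb 0, hb 1⟩
  have key : ∀ {u}, P'.W e f u → P'.Sing u → u ≠ 0 → ∃ x s w, P'.Rt G' e u x ∧ x ≠ 1 ∧
      c.U p s x ∧ s ≠ 1 ∧ P.Tv G w s := by
    intro u hu su u0
    obtain ⟨x, hx, hx'⟩ := hG'.exists_root se su hu.ep e0 (hu.not_smul h.h1 u0)
    obtain ⟨s, hs⟩ := Corr.exists_U' (c := c) hx.mem (hx.unip hG' p)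
    obtain ⟨w, hw⟩ := hG.tv_of_pCentral hB hl hex
      (hs.symm.pCentral ((hG'.pCentral_iff hQ (by omega)).2 hx.ex))
    exact ⟨x, s, w, hx', hx.ne, hs, fun k => hx.ne (hs.eq_one_iff.1 k), hw⟩
  have key2 : ∀ {u v x y s t w w'}, P'.Rt G' e u x → P'.Rt G' e v y → x ≠ 1 → y ≠ 1 →
      c.U p s x → c.U p t y → s ≠ 1 → t ≠ 1 → P.Tv G w s → P.Tv G w' t → P'.B u v = 0 →
      ∃ k : F, w' = k • w := by
    intro u v x y s t w w' hx hy x1 y1 hs ht s1 t1 hw hw' huv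
    obtain ⟨hc, hr⟩ := (hx.col_iff hG' hQ hy x1 y1).2 huv
    have hc' : Commute s t := (ht.commute_iff hs.rel).2 hc
    obtain ⟨z, hz⟩ := hG.tv_of_pCentral hB hl hex
      ((hs.mul ht hc').symm.pCentral ((hG'.pCentral_iff hQ (by omega)).2 hr))
    exact hw.same hw' s1 t1 ((hw.commute_iff hG hw' s1 t1).1 hc') hz
  obtain ⟨x, s, w, hx, x1, hs, s1, hw⟩ := key h.wu h.h2.se h.h2.e_ne
  obtain ⟨y, t, w', hy, y1, ht, t1, hw'⟩ := key hbW sb b0
  obtain ⟨z, u, w'', hz, z1, hu, u1, hw''⟩ := key h.wv h.h2.sf h.h2.f_ne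
  obtain ⟨k, hk⟩ := key2 hy hx y1 x1 ht hs t1 s1 hw' hw (hb 2)
  obtain ⟨l, hl'⟩ := key2 hy hz y1 z1 ht hu t1 u1 hw' hw'' (hb 3)
  have k0 : k ≠ 0 := by rintro rfl; exact hw.ne (by simpa using hk)
  have l0 : l ≠ 0 := by rintro rfl; exact hw''.ne (by simpa using hl')
  have h1 : P.Tv G w' s := by simpa [hk, smul_smul, k0] using hw.smul (inv_ne_zero k0)
  have h2 : P.Tv G w' u := by simpa [hl', smul_smul, l0] using hw''.smul (inv_ne_zero l0)
  have hc : Commute s u := h1.commute_of_perp h2 (P.sing_self _ h1.sing)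
  have h3 := (hG'.pCentral_iff hQ (by omega)).1 ((hs.mul hu hc).pCentral ((h1.mul h2).pCentral hG hB))
  have h4 := (hx.col_iff hG' hQ hz x1 z1).1 ⟨hu.commute hs.rel hc, h3⟩
  rw [h.h2.ef] at h4
  exact one_ne_zero h4

theorem isEmpty_psp_pomega [Finite F] (h2 : (2 : F) ≠ 0) {m : ℕ} (hm : 2 ≤ m) {ι : Type}
    [Fintype ι] [DecidableEq ι] {Q : QuadraticForm F (ι → F)}
    (hQ : (QuadraticMap.polarBilin Q).Nondegenerate) (h7 : 7 ≤ Fintype.card ι) :
    IsEmpty (Cfsg.PSp m F ≃* Cfsg.POmega F Q) := by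
  refine ⟨fun β => ?_⟩
  have R := polarRep_sp (F := F) hm
  have R' := polarRep_om hQ (by omega : 5 ≤ Fintype.card ι)
  refine no_corr_tv_root (corrOf R.projRep R'.projRep β) R.adm R.big ⟨1, ?_⟩ R.ex R'.adm
    (quad_polarQ hQ) (by simpa using h7)
  intro h
  apply h2
  simp only [RingHom.id_apply, mul_one] at h
  linear_combination -h

end CF.Known
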